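import Cfsg.Agent.H871.Par9

/-!
# `PSL₃(4)` has no self-dual projective representation of degree 8 with scalars `±1` in odd characteristic (helper475)

* `psi_dvd` : commuting involutions `x₁, …, x_r`: the sum of the dimensions of the `(-1)`-spaces of the `2 ^ r` products is
  divisible by `2 ^ (r - 1)`;
* `PD.sixteen_ne` : `2^4:A5 ≤ T`, `PD F n T`, `2 ≠ 0`: `n ≠ 8`;
* `PD.psl34_ne` : `T = PSL₃(4)`.
-/

set_option autoImplicit false
set_option linter.unusedSectionVars false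

universe u v w

namespace Cfsg.Agent.H475.EP.L34

open Module Matrix Cfsg.Agent.H871.Par

section psi

variable {K : Type*} [Field K] {V : Type*} [AddCommGroup V] [Module K V] [FiniteDimensional K V]

/-- dimension of the `(-1)`-space on `W` -/
noncomputable def ng (W : Submodule K V) (a : End K V) : ℕ := finrank K ↥(W ⊓ LinearMap.ker (a + 1))

/-- invariance -/
def In (W : Submodule K V) (b : End K V) : Prop := ∀ v ∈ W, b v ∈ W

theorem mem_m {b : End K V} {v : V} : v ∈ LinearMap.ker (b + 1) ↔ b v = - v := by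
  rw [LinearMap.mem_ker, LinearMap.add_apply, End.one_apply, add_eq_zero_iff_eq_neg]

theorem mem_p {b : End K V} {v : V} : v ∈ LinearMap.ker (b - 1) ↔ b v = v := by
  rw [LinearMap.mem_ker, LinearMap.sub_apply, End.one_apply, sub_eq_zero]

/-- splitting by an involution -/
theorem split (h2 : (2 : K) ≠ 0) {W : Submodule K V} {b : End K V} (hb : b * b = 1) (hW : In W b) :
    finrank K W = finrank K ↥(W ⊓ LinearMap.ker (b - 1)) + finrank K ↥(W ⊓ LinearMap.ker (b + 1)) := by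
  have hbb : ∀ v, b (b v) = v := fun v => by
    have := congrArg (fun f : End K V => f v) hb
    simpa using this
  have h1 : (W ⊓ LinearMap.ker (b - 1)) ⊔ (W ⊓ LinearMap.ker (b + 1)) = W := by
    apply le_antisymm (sup_le inf_le_left inf_le_left)
    intro v hv
    refine Submodule.mem_sup.2 ⟨(2 : K)⁻¹ • (v + b v), ⟨W.smul_mem _ (W.add_mem hv (hW v hv)), ?_⟩,
      (2 : K)⁻¹ • (v - b v), ⟨W.smul_mem _ (W.sub_mem hv (hW v hv)), ?_⟩, ?_⟩
    · rw [SetLike.mem_coe, mem_p, map_smul, map_add, hbb, add_comm]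
    · rw [SetLike.mem_coe, mem_m, map_smul, map_sub, hbb, ← smul_neg, neg_sub]
    · rw [← smul_add, add_add_sub_cancel, ← two_smul K v, smul_smul, inv_mul_cancel₀ h2, one_smul]
  have h3 : (W ⊓ LinearMap.ker (b - 1)) ⊓ (W ⊓ LinearMap.ker (b + 1)) = ⊥ := by
    rw [eq_bot_iff]
    rintro v ⟨⟨-, hv⟩, -, hv'⟩
    have e1 : b v = v := mem_p.1 hv
    have e2 : b v = -v := mem_m.1 hv'
    have e3 : (2 : K) • v = 0 := by
      rw [two_smul]
      nth_rewrite 1 [← e1]
      rw [e2, neg_add_cancel]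
    exact (smul_eq_zero.1 e3).resolve_left h2
  have h4 := Submodule.finrank_sup_add_finrank_inf_eq (W ⊓ LinearMap.ker (b - 1)) (W ⊓ LinearMap.ker (b + 1))
  rw [h1, h3, finrank_bot, add_zero] at h4
  exact h4

/-- a set of commuting involutions, closed under products -/
structure Ab (S : Set (End K V)) : Prop where
  sq : ∀ a ∈ S, a * a = 1
  comm : ∀ a ∈ S, ∀ b ∈ S, a * b = b * a
  mul : ∀ a ∈ S, ∀ b ∈ S, a * b ∈ S

/-- the sum of the dimensions over the coset -/
noncomputable def psi : List (End K V) → End K V → Submodule K V → ℕ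
  | [], c, W => ng W c
  | b :: l, c, W => psi l c W + psi l (c * b) W

variable {S : Set (End K V)}

theorem in_m {b c : End K V} (h : c * b = b * c) {W : Submodule K V} (hW : In W c) : In (W ⊓ LinearMap.ker (b + 1)) c := by
  rintro v ⟨hv, hv'⟩
  refine ⟨hW v hv, ?_⟩
  rw [SetLike.mem_coe, mem_m] at hv' ⊢
  have : b (c v) = c (b v) := by
    have := congrArg (fun f : End K V => f v) h
    simpa using this.symm
  rw [this, hv', map_neg]

theorem in_p {b c : End K V} (h : c * b = b * c) {W : Submodule K V} (hW : In W c) : In (W ⊓ LinearMap.ker (b - 1)) c := by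
  rintro v ⟨hv, hv'⟩
  refine ⟨hW v hv, ?_⟩
  rw [SetLike.mem_coe, mem_p] at hv' ⊢
  have : b (c v) = c (b v) := by
    have := congrArg (fun f : End K V => f v) h
    simpa using this.symm
  rw [this, hv']

theorem psi_p (hS : Ab S) {b : End K V} (hb : b ∈ S) : ∀ (l : List (End K V)) (_ : ∀ x ∈ l, x ∈ S) {c : End K V}
    (_ : c ∈ S) {W : Submodule K V} (_ : W ≤ LinearMap.ker (b - 1)), psi l (c * b) W = psi l c W
  | [], _, c, hc, W, hW => by
    have : W ⊓ LinearMap.ker (c * b + 1) = W ⊓ LinearMap.ker (c + 1) := by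
      ext v
      simp only [Submodule.mem_inf, mem_m]
      constructor
      · rintro ⟨h1, h2⟩
        refine ⟨h1, ?_⟩
        rw [End.mul_apply, mem_p.1 (hW h1)] at h2
        exact h2
      · rintro ⟨h1, h2⟩
        refine ⟨h1, ?_⟩
        rw [End.mul_apply, mem_p.1 (hW h1)]
        exact h2
    rw [psi, psi, ng, ng, this]
  | a :: l, hl, c, hc, W, hW => by
    have ha := hl a (by simp)
    rw [psi, psi, psi_p hS hb l (fun x hx => hl x (by simp [hx])) hc hW, mul_assoc, hS.comm b hb a ha, ← mul_assoc,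
      psi_p hS hb l (fun x hx => hl x (by simp [hx])) (hS.mul c hc a ha) hW]

theorem psi_m (h2 : (2 : K) ≠ 0) (hS : Ab S) {b : End K V} (hb : b ∈ S) : ∀ (l : List (End K V)) (_ : ∀ x ∈ l, x ∈ S)
    {c : End K V} (_ : c ∈ S) {W : Submodule K V} (_ : ∀ x ∈ S, In W x) (_ : W ≤ LinearMap.ker (b + 1)),
    psi l (c * b) W + psi l c W = 2 ^ l.length * finrank K W
  | [], _, c, hc, W, hi, hW => by
    have : W ⊓ LinearMap.ker (c * b + 1) = W ⊓ LinearMap.ker (c - 1) := by
      ext v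
      simp only [Submodule.mem_inf, mem_m, mem_p]
      constructor
      · rintro ⟨h1, h2⟩
        refine ⟨h1, ?_⟩
        rw [End.mul_apply, mem_m.1 (hW h1), map_neg, neg_inj] at h2
        exact h2
      · rintro ⟨h1, h2⟩
        refine ⟨h1, ?_⟩
        rw [End.mul_apply, mem_m.1 (hW h1), map_neg, h2]
    rw [psi, psi, ng, ng, this, List.length_nil, pow_zero, one_mul, split h2 (hS.sq c hc) (hi c hc)]
  | a :: l, hl, c, hc, W, hi, hW => by
    have ha := hl a (by simp)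
    have e1 := psi_m h2 hS hb l (fun x hx => hl x (by simp [hx])) hc hi hW
    have e2 := psi_m h2 hS hb l (fun x hx => hl x (by simp [hx])) (hS.mul c hc a ha) hi hW
    rw [psi, psi, mul_assoc c b a, hS.comm b hb a ha, ← mul_assoc, List.length_cons, pow_succ, mul_comm (2 ^ l.length) 2,
      mul_assoc 2 (2 ^ l.length), two_mul]
    nth_rewrite 1 [← e1]
    rw [← e2]
    omega

theorem psi_split (h2 : (2 : K) ≠ 0) (hS : Ab S) {b : End K V} (hb : b ∈ S) : ∀ (l : List (End K V))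
    (_ : ∀ x ∈ l, x ∈ S) {c : End K V} (_ : c ∈ S) {W : Submodule K V} (_ : ∀ x ∈ S, In W x),
    psi l c W = psi l c (W ⊓ LinearMap.ker (b - 1)) + psi l c (W ⊓ LinearMap.ker (b + 1))
  | [], _, c, hc, W, hi => by
    have h1 : In (W ⊓ LinearMap.ker (c + 1)) b := in_m (hS.comm b hb c hc) (hi b hb)
    rw [psi, psi, psi, ng, ng, ng, split h2 (hS.sq b hb) h1, inf_right_comm W (LinearMap.ker (b - 1)),
      inf_right_comm W (LinearMap.ker (b + 1))]
  | a :: l, hl, c, hc, W, hi => by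
    have ha := hl a (by simp)
    rw [psi, psi, psi, psi_split h2 hS hb l (fun x hx => hl x (by simp [hx])) hc hi,
      psi_split h2 hS hb l (fun x hx => hl x (by simp [hx])) (hS.mul c hc a ha) hi]
    omega

theorem psi_dvd (h2 : (2 : K) ≠ 0) (hS : Ab S) : ∀ (l : List (End K V)) (_ : ∀ x ∈ l, x ∈ S) {c : End K V} (_ : c ∈ S)
    {W : Submodule K V} (_ : ∀ x ∈ S, In W x), 2 ^ l.length ∣ 2 * psi l c W
  | [], _, c, hc, W, hi => by simp
  | b :: l, hl, c, hc, W, hi => by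
    have hb := hl b (by simp)
    have hl' : ∀ x ∈ l, x ∈ S := fun x hx => hl x (by simp [hx])
    have hip : ∀ x ∈ S, In (W ⊓ LinearMap.ker (b - 1)) x := fun x hx => in_p (hS.comm x hx b hb) (hi x hx)
    have him : ∀ x ∈ S, In (W ⊓ LinearMap.ker (b + 1)) x := fun x hx => in_m (hS.comm x hx b hb) (hi x hx)
    have e1 := psi_split h2 hS hb l hl' hc hi
    have e2 := psi_split h2 hS hb l hl' (hS.mul c hc b hb) hi
    have e3 := psi_p hS hb l hl' hc (W := W ⊓ LinearMap.ker (b - 1)) inf_le_right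
    have e4 := psi_m h2 hS hb l hl' hc him inf_le_right
    obtain ⟨t, ht⟩ := psi_dvd h2 hS l hl' hc hip
    rw [psi, List.length_cons]
    refine ⟨t + finrank K ↥(W ⊓ LinearMap.ker (b + 1)), ?_⟩
    have e5 : 2 ^ (l.length + 1) * (t + finrank K ↥(W ⊓ LinearMap.ker (b + 1))) =
        2 * (2 ^ l.length * t) + 2 * (2 ^ l.length * finrank K ↥(W ⊓ LinearMap.ker (b + 1))) := by ring
    rw [e5, ← ht, ← e4, e1, e2, e3]
    ring

theorem ng_one (h2 : (2 : K) ≠ 0) : ng (⊤ : Submodule K V) (1 : End K V) = 0 := by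
  have : (⊤ : Submodule K V) ⊓ LinearMap.ker ((1 : End K V) + 1) = ⊥ := by
    rw [eq_bot_iff]
    rintro v ⟨-, hv⟩
    have e1 : (1 : End K V) v = -v := mem_m.1 hv
    rw [End.one_apply] at e1
    have e3 : (2 : K) • v = 0 := by
      rw [two_smul]
      nth_rewrite 1 [e1]
      rw [neg_add_cancel]
    exact (smul_eq_zero.1 e3).resolve_left h2
  rw [ng, this, finrank_bot]

theorem ng_neg (h2 : (2 : K) ≠ 0) {a : End K V} (ha : a * a = 1) :
    ng (⊤ : Submodule K V) (-a) + ng (⊤ : Submodule K V) a = finrank K V := by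
  have h1 := split h2 (W := (⊤ : Submodule K V)) ha (fun v _ => Submodule.mem_top)
  have : (⊤ : Submodule K V) ⊓ LinearMap.ker (-a + 1) = ⊤ ⊓ LinearMap.ker (a - 1) := by
    ext v
    simp only [Submodule.mem_inf, mem_m, mem_p, LinearMap.neg_apply, neg_inj]
  rw [finrank_top] at h1
  rw [ng, ng, this, ← h1]

theorem ng_conj {g g' a : End K V} (hg : g * g' = 1) (hg' : g' * g = 1) :
    ng (⊤ : Submodule K V) (g * a * g') = ng (⊤ : Submodule K V) a := by
  let e : V ≃ₗ[K] V := LinearEquiv.ofLinear g g' (by rw [← End.mul_eq_comp, hg]; rfl) (by rw [← End.mul_eq_comp, hg']; rfl)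
  have : (⊤ : Submodule K V) ⊓ LinearMap.ker (g * a * g' + 1) = (⊤ ⊓ LinearMap.ker (a + 1)).map (e : V →ₗ[K] V) := by
    rw [top_inf_eq, top_inf_eq]
    ext v
    rw [Submodule.mem_map, mem_m]
    constructor
    · intro h
      refine ⟨g' v, ?_, ?_⟩
      · rw [mem_m]
        have h1 := congrArg (fun x => g' x) h
        simp only [End.mul_apply, map_neg] at h1
        have h3 : g' (g (a (g' v))) = a (g' v) := by
          rw [← End.mul_apply, hg', End.one_apply]
        rw [h3] at h1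
        exact h1
      · change g (g' v) = v
        rw [← End.mul_apply, hg, End.one_apply]
    · rintro ⟨u, hu, rfl⟩
      rw [mem_m] at hu
      change (g * a * g') (g u) = - g u
      have h3 : g' (g u) = u := by
        rw [← End.mul_apply, hg', End.one_apply]
      rw [End.mul_apply, h3, End.mul_apply, hu, map_neg]
  rw [ng, ng, this]
  exact LinearEquiv.finrank_map_eq e _

theorem eq_one_of_ng {a : End K V} (ha : a * a = 1) (h : ng (⊤ : Submodule K V) a = 0) : a = 1 := by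
  rw [ng, Submodule.finrank_eq_zero, top_inf_eq, LinearMap.ker_eq_bot] at h
  refine LinearMap.ext fun v => ?_
  have h1 : (a + 1) (a v - v) = 0 := by
    have h3 : a (a v) = v := by rw [← End.mul_apply, ha, End.one_apply]
    rw [LinearMap.add_apply, map_sub, End.one_apply, h3]
    abel
  have h4 := h (h1.trans (map_zero _).symm)
  rw [End.one_apply]
  exact sub_eq_zero.1 h4

theorem eq_neg_of_ng {a : End K V} (h : ng (⊤ : Submodule K V) a = finrank K V) : a = -1 := by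
  rw [ng, top_inf_eq] at h
  have h1 := Submodule.eq_top_of_finrank_eq h
  refine LinearMap.ext fun v => ?_
  have h3 : v ∈ LinearMap.ker (a + 1) := by rw [h1]; exact Submodule.mem_top
  rw [mem_m.1 h3]
  rfl

end psi

variable {F : Type u} [Field F] {n : ℕ} {T : Type v} [Group T]

/-- **`2^4:A5`** in odd characteristic, scalars `±1`: the degree is not 8. -/
theorem PD.sixteen_ne (h : PD F n T) (h2 : (2 : F) ≠ 0) {K : Type w} [Field K] [CharP K 2] {w : K}
    (hw : w ^ 2 + w + 1 = 0) (f : K × K → T) (hf : ∀ x y, f (x + y) = f x * f y) (hinj : Function.Injective f)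
    (hact : ∀ a b c d : K, a * d - b * c = 1 → ∃ g : T, ∀ x : K × K,
      g * f x * g⁻¹ = f (a * x.1 + b * x.2, c * x.1 + d * x.2)) : n ≠ 8 := by
  intro hn
  have h20 : (2 : K) = 0 := by exact_mod_cast CharP.cast_eq_zero K 2
  have hxx : ∀ x : K × K, x + x = 0 := by
    intro x
    ext
    · change x.1 + x.1 = 0; linear_combination x.1 * h20
    · change x.2 + x.2 = 0; linear_combination x.2 * h20
  have f0 : f 0 = 1 := by
    have := hf 0 0
    rw [add_zero] at this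
    exact left_eq_mul.1 this
  let E : Subgroup T :=
    { carrier := Set.range f
      mul_mem' := by
        rintro _ _ ⟨x, rfl⟩ ⟨y, rfl⟩
        exact ⟨x + y, hf x y⟩
      one_mem' := ⟨0, f0⟩
      inv_mem' := by
        rintro _ ⟨x, rfl⟩
        refine ⟨x, ?_⟩
        have := hf x x
        rw [hxx, f0] at this
        exact eq_inv_of_mul_eq_one_left this.symm }
  have hw0 : w ≠ 0 := by
    rintro rfl
    norm_num at hw
  have hw1 : w ≠ 1 := by
    rintro rfl
    have : (1 : K) = 0 := by linear_combination hw - h20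
    exact one_ne_zero this
  have tr1 : ∀ x : K × K, x ≠ 0 → ∃ g : T, g * f (1, 0) * g⁻¹ = f x := by
    intro x hx
    by_cases h1 : x.1 = 0
    · have h3 : x.2 ≠ 0 := fun h3 => hx (Prod.ext h1 h3)
      obtain ⟨g, hg⟩ := hact 0 (-(x.2)⁻¹) x.2 0 (by field_simp; ring)
      refine ⟨g, ?_⟩
      rw [hg]
      congr 1
      ext
      · simp [h1]
      · simp
    · obtain ⟨g, hg⟩ := hact x.1 0 x.2 (x.1)⁻¹ (by field_simp; ring)
      refine ⟨g, ?_⟩
      rw [hg]
      congr 1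
      ext
      · simp
      · simp
  have ne : ∀ x y : K × K, x ≠ y → f x ≠ f y := fun x y hxy h => hxy (hinj h)
  have hE8 : ∃ a ∈ E, ∃ b ∈ E, ∃ c ∈ E, a ≠ 1 ∧ b ≠ 1 ∧ b ≠ a ∧ c ≠ 1 ∧ c ≠ a ∧ c ≠ b ∧ c ≠ a * b := by
    refine ⟨f (1, 0), ⟨_, rfl⟩, f (0, 1), ⟨_, rfl⟩, f (w, 0), ⟨_, rfl⟩, ?_, ?_, ?_, ?_, ?_, ?_, ?_⟩
    · rw [← f0]; exact ne _ _ (by simp)
    · rw [← f0]; exact ne _ _ (by simp)
    · exact ne _ _ (by simp)
    · rw [← f0]; exact ne _ _ (by simp [hw0])
    · exact ne _ _ (by simp [hw1])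
    · exact ne _ _ (by simp)
    · rw [← hf]; exact ne _ _ (by simp)
  have htr : ∀ a ∈ E, ∀ b ∈ E, a ≠ 1 → b ≠ 1 → ∃ g, g * a * g⁻¹ = b := by
    rintro _ ⟨x, rfl⟩ _ ⟨z, rfl⟩ hx hz
    obtain ⟨g, hg⟩ := tr1 x (by rintro rfl; exact hx f0)
    obtain ⟨g', hg'⟩ := tr1 z (by rintro rfl; exact hz f0)
    refine ⟨g' * g⁻¹, ?_⟩
    rw [← hg, ← hg']
    group
  obtain ⟨L, _, π, V, _, _, _, ρ, B, hπ, hρ, hker, hnd, hinv, rfl⟩ := h
  have h2' := Cfsg.Agent.H871.Par.two_ne h2
  have helem : ∀ x : L, π x ∈ E → x * x = 1 := fun x hx => sq_eq_one hρ hker hπ (by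
    rintro _ ⟨x, rfl⟩
    rw [← hf, hxx, f0]) hE8 htr hx
  let S : Set (End (AlgebraicClosure F) V) := {a | ∃ x, π x ∈ E ∧ ρ x = a}
  have hS : Ab S := by
    refine ⟨?_, ?_, ?_⟩
    · rintro _ ⟨x, hx, rfl⟩
      rw [← map_mul, helem x hx, map_one]
    · rintro _ ⟨x, hx, rfl⟩ _ ⟨y, hy, rfl⟩
      have h1 := helem (x * y) (by rw [map_mul]; exact E.mul_mem hx hy)
      have h3 : x⁻¹ = x := inv_eq_of_mul_eq_one_left (helem x hx)
      have h4 : y⁻¹ = y := inv_eq_of_mul_eq_one_left (helem y hy)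
      have h5 : (x * y)⁻¹ = x * y := inv_eq_of_mul_eq_one_left h1
      rw [_root_.mul_inv_rev, h3, h4] at h5
      rw [← map_mul, ← map_mul, h5]
    · rintro _ ⟨x, hx, rfl⟩ _ ⟨y, hy, rfl⟩
      exact ⟨x * y, by rw [map_mul]; exact E.mul_mem hx hy, map_mul _ _ _⟩
  obtain ⟨x₁, hx₁⟩ := hπ (f (1, 0))
  obtain ⟨x₂, hx₂⟩ := hπ (f (w, 0))
  obtain ⟨x₃, hx₃⟩ := hπ (f (0, 1))
  obtain ⟨x₄, hx₄⟩ := hπ (f (0, w))
  set k := ng (⊤ : Submodule (AlgebraicClosure F) V) (ρ x₁) with hk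
  have hfin : finrank (AlgebraicClosure F) V = 8 := hn
  have hsq1 : ρ x₁ * ρ x₁ = 1 := hS.sq _ ⟨x₁, by rw [hx₁]; exact ⟨_, rfl⟩, rfl⟩
  -- the dimensions
  have key : ∀ x : L, ∀ v : K × K, v ≠ 0 → π x = f v →
      ∃ t : ℤ, 0 ≤ t ∧ t ≤ 1 ∧ (ng (⊤ : Submodule (AlgebraicClosure F) V) (ρ x) : ℤ) = k + (8 - 2 * k) * t := by
    intro x v hv hx
    obtain ⟨g, hg⟩ := tr1 v hv
    obtain ⟨g', rfl⟩ := hπ g
    have h1 : π (g' * x₁ * g'⁻¹ * x⁻¹) = 1 := by
      rw [map_mul, map_mul, map_mul, map_inv, map_inv, hx₁, hg, hx, mul_inv_cancel]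
    have h3 : ρ (g' * x₁ * g'⁻¹) = ρ (g' * x₁ * g'⁻¹ * x⁻¹) * ρ x := by
      rw [← map_mul]
      congr 1
      group
    have h4 : ng (⊤ : Submodule (AlgebraicClosure F) V) (ρ (g' * x₁ * g'⁻¹)) = k := by
      rw [map_mul, map_mul]
      exact ng_conj (by rw [← map_mul, mul_inv_cancel, map_one]) (by rw [← map_mul, inv_mul_cancel, map_one])
    have h5 : ρ x * ρ x = 1 := hS.sq _ ⟨x, by rw [hx]; exact ⟨_, rfl⟩, rfl⟩
    rcases hker _ h1 with h6 | h6
    · rw [h6, one_mul] at h3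
      refine ⟨0, le_rfl, by norm_num, ?_⟩
      rw [← h3, h4]
      ring
    · rw [h6, neg_one_mul] at h3
      refine ⟨1, by norm_num, le_rfl, ?_⟩
      have h7 := ng_neg h2' h5
      rw [← h3, h4, hfin] at h7
      have h8 : (k : ℤ) + (ng (⊤ : Submodule (AlgebraicClosure F) V) (ρ x) : ℤ) = 8 := by exact_mod_cast h7
      linear_combination h8
  have hk0 : k ≠ 0 := by
    intro h0
    have h1 := eq_one_of_ng hsq1 h0
    have h3 : x₁ = 1 := hρ (h1.trans (map_one ρ).symm)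
    rw [h3, map_one, ← f0] at hx₁
    exact ne _ _ (fun h => zero_ne_one (congrArg Prod.fst h)) hx₁
  have hk8 : k ≠ 8 := by
    intro h0
    have h1 := eq_neg_of_ng (a := ρ x₁) (by rw [hfin]; exact h0)
    have h3 : ∀ y : L, x₁ * y = y * x₁ := by
      intro y
      apply hρ
      rw [map_mul, map_mul, h1]
      simp
    obtain ⟨g, hg⟩ := tr1 (0, 1) (by simp)
    obtain ⟨g', rfl⟩ := hπ g
    have h4 : π g' * f (1, 0) * (π g')⁻¹ = f (1, 0) := by
      rw [← hx₁, ← map_mul, ← h3, map_mul, mul_inv_cancel_right]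
    rw [h4] at hg
    exact ne _ _ (by simp) hg
  have hkle : k ≤ 8 := by
    rw [hk, ← hfin]
    exact Submodule.finrank_le _
  have hmem : ∀ x : L, ∀ v : K × K, π x = f v → ρ x ∈ S := fun x v hx => ⟨x, by rw [hx]; exact ⟨_, rfl⟩, rfl⟩
  have hd := psi_dvd h2' hS [ρ x₁, ρ x₂, ρ x₃, ρ x₄] (by
    intro a ha
    simp only [List.mem_cons, List.not_mem_nil, or_false] at ha
    rcases ha with rfl | rfl | rfl | rfl
    · exact hmem _ _ hx₁
    · exact hmem _ _ hx₂
    · exact hmem _ _ hx₃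
    · exact hmem _ _ hx₄) (c := 1) ⟨1, by rw [map_one, ← f0]; exact ⟨_, rfl⟩, map_one ρ⟩
    (W := ⊤) (fun _ _ _ _ => Submodule.mem_top)
  simp only [psi, List.length_cons, List.length_nil, one_mul, ← map_mul, ng_one h2'] at hd
  have aux : ∀ (x y : L) (u v : K × K), π x = f u → π y = f v → π (x * y) = f (u + v) := by
    intro x y u v hx hy
    rw [map_mul, hx, hy, hf]
  have w10 : w + 1 ≠ 0 := by
    intro h0
    have : w = -1 := eq_neg_of_add_eq_zero_left h0
    rw [this] at hw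
    have : (1 : K) = 0 := by linear_combination hw
    exact one_ne_zero this
  have w01 : 1 + w ≠ 0 := by rw [add_comm]; exact w10
  obtain ⟨t4, a4, b4, c4⟩ := key _ (0, w) (by simp [hw0]) hx₄
  obtain ⟨t3, a3, b3, c3⟩ := key _ (0, 1) (by simp) hx₃
  obtain ⟨t34, a34, b34, c34⟩ := key _ _ (by simp [w01]) (aux _ _ _ _ hx₃ hx₄)
  obtain ⟨t2, a2, b2, c2⟩ := key _ (w, 0) (by simp [hw0]) hx₂
  obtain ⟨t24, a24, b24, c24⟩ := key _ _ (by simp [hw0]) (aux _ _ _ _ hx₂ hx₄)
  obtain ⟨t23, a23, b23, c23⟩ := key _ _ (by simp) (aux _ _ _ _ hx₂ hx₃)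
  obtain ⟨t234, a234, b234, c234⟩ := key _ _ (by simp [hw0]) (aux _ _ _ _ (aux _ _ _ _ hx₂ hx₃) hx₄)
  obtain ⟨t1, a1, b1, c1⟩ := key _ (1, 0) (by simp) hx₁
  obtain ⟨t14, a14, b14, c14⟩ := key _ _ (by simp) (aux _ _ _ _ hx₁ hx₄)
  obtain ⟨t13, a13, b13, c13⟩ := key _ _ (by simp) (aux _ _ _ _ hx₁ hx₃)
  obtain ⟨t134, a134, b134, c134⟩ := key _ _ (by simp) (aux _ _ _ _ (aux _ _ _ _ hx₁ hx₃) hx₄)
  obtain ⟨t12, a12, b12, c12⟩ := key _ _ (by simp [w01]) (aux _ _ _ _ hx₁ hx₂)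
  obtain ⟨t124, a124, b124, c124⟩ := key _ _ (by simp [w01]) (aux _ _ _ _ (aux _ _ _ _ hx₁ hx₂) hx₄)
  obtain ⟨t123, a123, b123, c123⟩ := key _ _ (by simp) (aux _ _ _ _ (aux _ _ _ _ hx₁ hx₂) hx₃)
  obtain ⟨t1234, a1234, b1234, c1234⟩ := key _ _ (by simp [w01]) (aux _ _ _ _ (aux _ _ _ _ (aux _ _ _ _ hx₁ hx₂) hx₃) hx₄)
  clear_value k
  obtain ⟨q, hq⟩ := hd
  zify at hq
  rw [c4, c3, c34, c2, c24, c23, c234, c1, c14, c13, c134, c12, c124, c123, c1234] at hq
  clear c4 c3 c34 c2 c24 c23 c234 c1 c14 c13 c134 c12 c124 c123 c1234 key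
  have hk1 : 1 ≤ k := Nat.pos_of_ne_zero hk0
  have hk7 : k ≤ 7 := by omega
  clear hk0 hk8 hkle hk
  interval_cases k <;> push_cast at hq <;> norm_num at hq <;> omega

/-- **`PSL₃(4)`**, scalars `±1`, odd characteristic: the degree is not 8. -/
theorem PD.psl34_ne (h : PD F n T) (h2 : (2 : F) ≠ 0) {K : Type w} [Field K] [Fintype K] (hK : Fintype.card K = 4)
    (e : T ≃* ProjectiveSpecialLinearGroup (Fin 3) K) : n ≠ 8 := by
  have hpow : ∀ x : K, x ^ 4 = x := by
    intro x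
    rw [← hK]; exact FiniteField.pow_card x
  have hchar : CharP K 2 := by
    obtain ⟨p, hp⟩ := CharP.exists K
    have : Fact p.Prime := ⟨CharP.char_is_prime K p⟩
    have h1 : p ∣ Fintype.card K := by
      obtain ⟨n, -, hn⟩ := FiniteField.card K p
      rw [hn]; exact dvd_pow_self _ n.pos.ne'
    rw [hK] at h1
    have h2 : p ∣ 2 := this.out.dvd_of_dvd_pow (show p ∣ 2 ^ 2 from h1)
    rw [(Nat.prime_dvd_prime_iff_eq this.out Nat.prime_two).1 h2] at hp
    exact hp
  have hex : ∃ x : K, x ≠ 0 ∧ x ≠ 1 := by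
    classical
    by_contra hcon
    push Not at hcon
    have h1 : (Finset.univ : Finset K) ⊆ {0, 1} := by
      intro x _
      rw [Finset.mem_insert, Finset.mem_singleton]
      by_cases h0 : x = 0
      · exact Or.inl h0
      · exact Or.inr (hcon x h0)
    have h2 := Finset.card_le_card h1
    rw [Finset.card_univ, hK] at h2
    have h3 : ({0, 1} : Finset K).card ≤ 2 := Finset.card_le_two
    omega
  obtain ⟨w, hw0, hw1⟩ := hex
  have hw : w ^ 2 + w + 1 = 0 := by
    have h1 : w * (w - 1) * (w ^ 2 + w + 1) = 0 := by linear_combination hpow w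
    exact (mul_eq_zero.1 h1).resolve_left (mul_ne_zero hw0 (sub_ne_zero.2 hw1))
  let f : K × K → ProjectiveSpecialLinearGroup (Fin 3) K := fun x => QuotientGroup.mk (tr3 x)
  refine PD.sixteen_ne (h.congr e.symm) h2 hw f (fun x y => ?_) ?_ ?_
  · change QuotientGroup.mk _ = QuotientGroup.mk _ * QuotientGroup.mk _
    rw [tr3_add]; rfl
  · intro x y hxy
    have h1 : (tr3 x)⁻¹ * tr3 y ∈ Subgroup.center (SpecialLinearGroup (Fin 3) K) := QuotientGroup.eq.1 hxy
    have h3 : (tr3 x)⁻¹ = tr3 (-x) := by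
      rw [inv_eq_iff_mul_eq_one, ← tr3_add, add_neg_cancel]
      apply Subtype.ext
      change !![(1 : K), 0, 0; 0, 1, 0; 0, 0, 1] = 1
      exact Matrix.one_fin_three.symm
    rw [h3, ← tr3_add, Matrix.SpecialLinearGroup.mem_center_iff] at h1
    obtain ⟨r, -, hr⟩ := h1
    have e1 := congrFun (congrFun hr 0) 2
    have e2 := congrFun (congrFun hr 1) 2
    have d1 : (Matrix.scalar (Fin 3) r) 0 2 = 0 := by simp
    have d2 : (Matrix.scalar (Fin 3) r) 1 2 = 0 := by simp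
    have k1 : (-x + y).1 = 0 := by
      have : (tr3 (-x + y)).1 0 2 = (-x + y).1 := rfl
      rw [← this, ← d1]; exact e1.symm
    have k2 : (-x + y).2 = 0 := by
      have : (tr3 (-x + y)).1 1 2 = (-x + y).2 := rfl
      rw [← this, ← d2]; exact e2.symm
    ext
    · have : -x.1 + y.1 = 0 := k1
      linear_combination -this
    · have : -x.2 + y.2 = 0 := k2
      linear_combination -this
  · intro a b c d hdet
    let g : SpecialLinearGroup (Fin 3) K := ⟨!![a, b, 0; c, d, 0; 0, 0, 1], by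
      simp [Matrix.det_fin_three]; linear_combination hdet⟩
    refine ⟨QuotientGroup.mk g, fun x => ?_⟩
    rw [mul_inv_eq_iff_eq_mul]
    change QuotientGroup.mk _ * QuotientGroup.mk _ = QuotientGroup.mk _ * QuotientGroup.mk _
    have key : g * tr3 x = tr3 (a * x.1 + b * x.2, c * x.1 + d * x.2) * g := by
      apply Subtype.ext
      change !![a, b, 0; c, d, 0; 0, 0, 1] * !![1, 0, x.1; 0, 1, x.2; 0, 0, 1] =
        !![1, 0, a * x.1 + b * x.2; 0, 1, c * x.1 + d * x.2; 0, 0, 1] * !![a, b, 0; c, d, 0; 0, 0, 1]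
      ext i j
      fin_cases i <;> fin_cases j <;> simp [Matrix.mul_apply, Fin.sum_univ_three]
    exact congrArg QuotientGroup.mk key


open Cfsg Cfsg.Geo Cfsg.Agent.H915.LD in
/-- **Cores.** -/
theorem no_l34 {ι : Type} [Fintype ι] [DecidableEq ι] {P : Subgroup (GeneralLinearGroup ι F)} (hC : Core P) (hsd : SD P)
    (h8 : Fintype.card ι = 8) (h2 : (2 : F) ≠ 0) (h : ∃ (K : Type) (_ : Field K) (_ : Fintype K), Fintype.card K = 4 ∧
      Nonempty (Soc P ≃* ProjectiveSpecialLinearGroup (Fin 3) K)) : False := by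
  obtain ⟨K, _, _, hK, ⟨e⟩⟩ := h
  exact PD.psl34_ne (pd_of_sd hC hsd e) h2 hK (MulEquiv.refl _) h8

end Cfsg.Agent.H475.EP.L34
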