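import Cfsg.Agent.H475.EP.QuatA
import Cfsg.Agent.H475.EP.QuatB

/-!
# Four commuting quaternion groups with a common centre in a projective representation of degree 8 (helper475)

Abstract form of `exists_x`: see `Quat.lean`.
-/

set_option autoImplicit false
set_option linter.unusedSectionVars false

namespace Cfsg.Agent.H475.EP.Quat

open Module Cfsg.Agent.H475.EP.L34

section extra

variable {R : Type*} [Ring R]

theorem pm.of_eq {x y : R} (h : x = y) : pm x y := Or.inl h

theorem sq_conj {f a c : R} (h : pm (f * a) (c * f)) : f * (a * a) = c * c * f := by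
  rcases h with h | h
  · rw [← mul_assoc, h, mul_assoc, h, ← mul_assoc]
  · rw [← mul_assoc, h, neg_mul, mul_assoc, h, mul_neg, neg_neg, ← mul_assoc]

end extra

section extra2

variable {F : Type*} [Field F] {V : Type*} [AddCommGroup V] [Module F V]

theorem pm_smul {α : F} (h : α = 1 ∨ α = -1) (x : End F V) : pm (α • x) x := by
  rcases h with rfl | rfl
  · exact Or.inl (one_smul _ _)
  · exact Or.inr (by rw [neg_smul, one_smul])

theorem exact_on (h2 : (2 : F) ≠ 0) {u A C G : End F V} (hA : ∀ v, u v = v → A v = v) (hC : ∀ v, u v = v → C v = v)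
    {v0 : V} (h0 : v0 ≠ 0) (h1 : u v0 = v0) (hG : IsUnit G) (hu : G * u = u * G) (h : pm (G * A) (C * G)) :
    G * A = C * G := by
  rcases h with h | h
  · exact h
  · exfalso
    have e1 : u (G v0) = G v0 := by
      have := congrArg (fun f : End F V => f v0) hu
      simp only [Module.End.mul_apply] at this
      rw [← this, h1]
    have e2 := congrArg (fun f : End F V => f v0) h
    simp only [Module.End.mul_apply, LinearMap.neg_apply] at e2
    rw [hA v0 h1, hC _ e1] at e2
    have e3 : (2 : F) • G v0 = 0 := by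
      rw [two_smul]
      nth_rewrite 1 [e2]
      exact neg_add_cancel _
    have e4 := (smul_eq_zero.1 e3).resolve_left h2
    obtain ⟨g, rfl⟩ := hG
    have e5 : ((↑g⁻¹ : End F V)) ((g : End F V) v0) = v0 :=
      congrArg (fun f : End F V => f v0) (g.inv_mul)
    rw [e4, map_zero] at e5
    exact h0 e5.symm

end extra2

section main

variable {F : Type*} [Field F] {V : Type*} [AddCommGroup V] [Module F V] [FiniteDimensional F V]
  {S : Type*} [Group S] {Q : Type*} [Group Q]

/-- the hypotheses on the four quaternion groups -/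
structure QH (i j : Fin 4 → Q) (z : Q) : Prop where
  z1 : z ≠ 1
  ii : ∀ k, i k * i k = z
  jj : ∀ k, j k * j k = z
  kk : ∀ k, i k * j k * (i k * j k) = z
  comm : ∀ k l, k ≠ l → Commute (i k) (i l) ∧ Commute (i k) (j l) ∧ Commute (j k) (i l) ∧ Commute (j k) (j l)
  cyc : ∀ k l, k ≠ l → ∃ (f : Q) (n : ℕ), Odd n ∧ f ^ n = 1 ∧ Commute f (i k) ∧ Commute f (j k) ∧
    f * i l = j l * f ∧ f * j l = i l * j l * f

/-- the conclusion -/
structure XH (i j : Q) (x : Q) : Prop where
  x3 : x ^ 3 = 1
  xi : x * i = j * x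
  xj : x * j = i * j * x
  comm : ∀ g, g * i = i * g → g * j = j * g → g * x = x * g
  cyc : ∀ g, g * i = j * g → g * j = i * j * g → g * x = x * g
  swap : ∀ g, g * i = j * g → g * j = i * g → g * x = x⁻¹ * j * g

theorem exists_x_abs (h2 : (2 : F) ≠ 0) {a₁ a₂ : F} (hxy : a₁ ^ 2 + a₂ ^ 2 = -1) (hd : finrank F V = 8)
    (ρ : S →* End F V) (π : S →* Q) (surj : Function.Surjective π) (hpm : ∀ s t, π s = π t ↔ pm (ρ s) (ρ t))
    {P : V → V → F} (al : ∀ x y v, P (x + y) v = P x v + P y v) (ar : ∀ v x y, P v (x + y) = P v x + P v y)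
    (sl : ∀ (c : F) x v, P (c • x) v = c * P x v) (sr : ∀ (c : F) v x, P v (c • x) = c * P v x)
    (iso : ∀ s v w, P (ρ s v) (ρ s w) = P v w)
    (lift : ∀ X Y : End F V, X * Y = 1 → Y * X = 1 → X * X = Y → (∀ v w, P (X v) (X w) = P v w) → ∃ s, ρ s = X)
    {i j : Fin 4 → Q} {z : Q} (h : QH i j z) : ∃ x : Q, XH (i 0) (j 0) x := by
  classical
  have hR : ∀ x : End F V, x = -x → x = 0 := by
    intro x hx
    have : (2 : F) • x = 0 := by
      rw [two_smul]
      nth_rewrite 1 [hx]
      exact neg_add_cancel _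
    exact (smul_eq_zero.1 this).resolve_left h2
  have : Nontrivial V := Module.nontrivial_of_finrank_pos (R := F) (by omega)
  have : Nontrivial (End F V) := inferInstance
  have hun : ∀ s, IsUnit (ρ s) := fun s => (Group.isUnit s).map ρ
  -- lifts
  choose lf hlf using surj
  set T : Q → End F V := fun g => ρ (lf g) with hT
  have uT : ∀ g, IsUnit (T g) := fun g => hun _
  have r11 : ∀ {g k : Q}, pm (T g) (T k) → g = k := by
    intro g k hp
    have := (hpm _ _).2 hp
    rwa [hlf, hlf] at this
  have r22 : ∀ {g k g' k' : Q}, g * k = g' * k' → pm (T g * T k) (T g' * T k') := by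
    intro g k g' k' e
    have := (hpm (lf g * lf k) (lf g' * lf k')).1 (by rw [map_mul, map_mul, hlf, hlf, hlf, hlf, e])
    rwa [map_mul, map_mul] at this
  have r23 : ∀ {g k g' k' k'' : Q}, g * k = g' * k' * k'' → pm (T g * T k) (T g' * T k' * T k'') := by
    intro g k g' k' k'' e
    have := (hpm (lf g * lf k) (lf g' * lf k' * lf k'')).1 (by
      rw [map_mul, map_mul, map_mul, hlf, hlf, hlf, hlf, hlf, e])
    rwa [map_mul, map_mul, map_mul] at this
  have r21 : ∀ {g k g' : Q}, g * k = g' → pm (T g * T k) (T g') := by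
    intro g k g' e
    have := (hpm (lf g * lf k) (lf g')).1 (by rw [map_mul, hlf, hlf, hlf, e])
    rwa [map_mul] at this
  have r41 : ∀ {g k g' : Q}, g * k * (g * k) = g' → pm (T g * T k * (T g * T k)) (T g') := by
    intro g k g' e
    have := (hpm (lf g * lf k * (lf g * lf k)) (lf g')).1 (by rw [map_mul, map_mul, hlf, hlf, hlf, e])
    rwa [map_mul, map_mul] at this
  have rp : ∀ {g : Q} {n : ℕ}, g ^ n = 1 → pm (T g ^ n) 1 := by
    intro g n e
    have := (hpm (lf g ^ n) 1).1 (by rw [map_pow, map_one, hlf, e])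
    rwa [map_pow, map_one] at this
  -- odd elements
  have odd : ∀ {f g : Q} {n : ℕ}, Odd n → f ^ n = 1 → Commute f g → T f * T g = T g * T f := by
    intro f g n hn hf hc
    exact odd_comm hR (uT g) hn (rp hf) (r22 hc.eq)
  set a : Fin 4 → End F V := fun k => T (i k) with ha
  set b : Fin 4 → End F V := fun k => T (j k) with hb
  have hcz : ∀ {k : Fin 4} {f : Q}, Commute f (i k) → Commute f z := by
    intro k f hf
    rw [← h.ii k]
    exact hf.mul_right hf
  -- exact commuting
  have hcomm : ∀ k l, k ≠ l → (a k * a l = a l * a k ∧ a k * b l = b l * a k) ∧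
      (b k * a l = a l * b k ∧ b k * b l = b l * b k) := by
    intro k l hkl
    obtain ⟨f, n, hn, hf, c1, c2, c3, c4⟩ := h.cyc k l hkl
    obtain ⟨d1, d2, d3, d4⟩ := h.comm k l hkl
    exact ⟨comm_exact hR (uT f) (uT _) (uT _) (uT _) (odd hn hf c1) (r22 c3) (r23 c4) (r22 d1.eq),
      comm_exact hR (uT f) (uT _) (uT _) (uT _) (odd hn hf c2) (r22 c3) (r23 c4) (r22 d3.eq)⟩
  -- the squares
  have hsq : ∀ l, b l * b l = a l * a l ∧ a l * b l * (a l * b l) = a l * a l := by
    intro l
    obtain ⟨k, hkl⟩ : ∃ k : Fin 4, k ≠ l := exists_ne l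
    obtain ⟨f, n, hn, hf, c1, c2, c3, c4⟩ := h.cyc k l hkl
    have e0 : T f * T z = T z * T f := odd hn hf (hcz c1)
    have e1 : pm (a l * a l) (T z) := r21 (h.ii l)
    have e2 : T f * (a l * a l) = a l * a l * T f := by
      rcases e1 with e1 | e1
      · rw [e1, e0]
      · rw [e1, mul_neg, neg_mul, e0]
    have e3 : T f * (a l * a l) = b l * b l * T f := sq_conj (r22 c3)
    have e4 : b l * b l = a l * a l := (uT f).mul_right_cancel (by rw [← e3, e2])
    have e5 : T f * (b l * b l) = a l * b l * (a l * b l) * T f := sq_conj (r23 c4)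
    refine ⟨e4, (uT f).mul_right_cancel ?_⟩
    rw [← e5, e4, e2]
  have hq : ∀ l, a l * b l = a l * a l * (b l * a l) ∧ a l * a l * (a l * a l) = 1 := fun l =>
    quat (uT _) (uT _) rfl (hsq l).1 (hsq l).2
  set u : End F V := a 0 * a 0 with hu
  have hul : ∀ l, pm (a l * a l) u := fun l => (r21 (h.ii l)).trans (r21 (h.ii 0)).symm
  set s : Fin 4 → F := fun l => if a l * a l = u then 1 else -1 with hs
  have hs1 : ∀ l, s l = 1 ∨ s l = -1 := by
    intro l
    by_cases e : a l * a l = u
    · exact Or.inl (if_pos e)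
    · exact Or.inr (if_neg e)
  have hsu : ∀ l, a l * a l = s l • u := by
    intro l
    by_cases e : a l * a l = u
    · have : s l = 1 := if_pos e
      rw [this, one_smul, e]
    · have : s l = -1 := if_neg e
      rw [this, neg_smul, one_smul]
      exact (hul l).resolve_left e
  have hs0 : s 0 = 1 := if_pos rfl
  have huu : u * u = 1 := (hq 0).2
  have hnpm : ¬ pm u 1 := by
    intro hp
    have e1 : pm (T z) (T 1) := (r21 (h.ii 0)).symm.trans (hp.trans (by
      have := rp (g := (1 : Q)) (n := 1) (pow_one 1)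
      rw [pow_one] at this
      exact this.symm))
    exact h.z1 (r11 e1)
  have ev : ∀ {f g : End F V}, f = g → ∀ v, f v = g v := fun e v => by rw [e]
  have dat : Dat u a b s := by
    refine ⟨fun v => ev huu v, fun e => hnpm (Or.inl e), fun e => hnpm (Or.inr e), hs1, fun m v => ev (hsu m) v,
      fun m v => ev ((hsq m).1.trans (hsu m)) v, fun m v => ?_, fun m m' hm => ?_, fun m m' hm => ?_⟩
    · have := ev (hq m).1 v
      rw [hsu m] at this
      exact this
    · exact ⟨fun v => (ev (hcomm m m' hm).1.1 v).symm, fun v => (ev (hcomm m m' hm).2.1 v).symm⟩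
    · exact ⟨fun v => (ev (hcomm m m' hm).1.2 v).symm, fun v => (ev (hcomm m m' hm).2.2 v).symm⟩
  obtain ⟨α, β, hα, hβ, fa, fb, v0, hv0, hv1⟩ := dat.core h2 hxy hd hs0
  have αα : α * α = 1 := by rcases hα with e | e <;> rw [e] <;> ring
  have ββ : β * β = 1 := by rcases hβ with e | e <;> rw [e] <;> ring
  set A : End F V := α • a 0 with hA
  set B : End F V := β • b 0 with hB
  have fA : ∀ v, u v = v → A v = v := by
    intro v hv
    rw [hA, LinearMap.smul_apply, fa v hv, smul_smul, αα, one_smul]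
  have fB : ∀ v, u v = v → B v = v := by
    intro v hv
    rw [hB, LinearMap.smul_apply, fb v hv, smul_smul, ββ, one_smul]
  have fC : ∀ v, u v = v → (A * B) v = v := by
    intro v hv
    rw [Module.End.mul_apply, fB v hv, fA v hv]
  have AA : A * A = u := by rw [hA, smul_mul_smul_comm, αα, one_smul]
  have BB : B * B = u := by rw [hB, smul_mul_smul_comm, ββ, one_smul, (hsq 0).1]
  have key : ∀ C : End F V, (∀ v, u v = v → C v = v) → C * C = u → u * C = 1 + u - C := by
    intro C hC hCC
    have e1 : u * C = C * u := by rw [← hCC, mul_assoc]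
    rw [e1]
    refine LinearMap.ext fun v => ?_
    have e2 : u (v + u v) = v + u v := by rw [map_add, dat.uu, add_comm]
    have e3 := hC _ e2
    rw [map_add] at e3
    change C (u v) = v + u v - C v
    rw [← e3]
    abel
  have hf : Hf u A B := by
    refine ⟨huu, AA, BB, ?_, key A fA AA, key B fB BB⟩
    have e1 : u * (a 0 * b 0) = b 0 * a 0 := by
      rw [(hq 0).1, ← hu, ← mul_assoc, huu, one_mul]
    rw [hA, hB, smul_mul_smul_comm, smul_mul_smul_comm, mul_comm β α, mul_smul_comm, e1]
  -- the element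
  set X : End F V := (2 : F)⁻¹ • X2 u A B with hX
  set Y : End F V := (2 : F)⁻¹ • Y2 A B with hY
  have h22 : (2 : F)⁻¹ * 2⁻¹ * 4 = 1 := by
    have : (4 : F) = 2 * 2 := by norm_num
    rw [this]
    field_simp
  have four : ((2 : F)⁻¹ * 2⁻¹) • (4 : End F V) = 1 := by
    have e : (4 : End F V) = (4 : F) • 1 := by
      have := map_ofNat (algebraMap F (End F V)) 4
      rw [← this, Algebra.algebraMap_eq_smul_one]
    rw [e, smul_smul, h22, one_smul]
  have XY : X * Y = 1 := by rw [hX, hY, smul_mul_smul_comm, hf.XY, four]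
  have YX : Y * X = 1 := by rw [hX, hY, smul_mul_smul_comm, hf.YX, four]
  have XX : X * X = Y := by
    rw [hX, hY, smul_mul_smul_comm, hf.XX, ← two_smul F, smul_smul, mul_assoc, inv_mul_cancel₀ h2, mul_one]
  have isoS : ∀ {γ : F}, γ * γ = 1 → ∀ (t : S) (v w : V), P ((γ • ρ t) v) ((γ • ρ t) w) = P v w := by
    intro γ hγ t v w
    rw [LinearMap.smul_apply, LinearMap.smul_apply, sl, sr, iso, ← mul_assoc, hγ, one_mul]
  have isoA : ∀ v w, P (A v) (A w) = P v w := isoS αα _
  have isoB : ∀ v w, P (B v) (B w) = P v w := isoS ββ _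
  have isou : ∀ v w, P (u v) (u w) = P v w := by
    intro v w
    rw [← AA, Module.End.mul_apply, Module.End.mul_apply, isoA, isoA]
  have nl : ∀ x v, P (-x) v = -P x v := by
    intro x v
    rw [← neg_one_smul F x, sl, neg_one_mul]
  have nr : ∀ v x, P v (-x) = -P v x := by
    intro v x
    rw [← neg_one_smul F x, sr, neg_one_mul]
  have isoX : ∀ v w, P (X v) (X w) = P v w := by
    intro v w
    rw [hX, LinearMap.smul_apply, LinearMap.smul_apply, sl, sr, polar_X al ar nl nr hf isou isoA isoB, ← mul_assoc,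
      ← mul_assoc, h22, one_mul]
  obtain ⟨xs, hxs⟩ := lift X Y XY YX XX isoX
  have aA : pm (a 0) A := (pm_smul hα _).symm
  have bB : pm (b 0) B := (pm_smul hβ _).symm
  have hX3 : ρ (xs ^ 3) = 1 := by rw [map_pow, hxs, pow_succ, pow_two, XX, YX]
  have XA : X * A = B * X := by
    calc X * A = (2 : F)⁻¹ • (X2 u A B * A) := smul_mul_assoc _ _ _
      _ = (2 : F)⁻¹ • (B * X2 u A B) := by rw [hf.XA]
      _ = B * X := (mul_smul_comm _ _ _).symm
  have XB : X * B = A * B * X := by
    calc X * B = (2 : F)⁻¹ • (X2 u A B * B) := smul_mul_assoc _ _ _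
      _ = (2 : F)⁻¹ • (A * B * X2 u A B) := by rw [hf.XB]
      _ = A * B * X := (mul_smul_comm _ _ _).symm
  have toX : ∀ g, pm (T g * X) (X * T g) → g * π xs = π xs * g := by
    intro g hp
    have := (hpm (lf g * xs) (xs * lf g)).2 (by rw [map_mul, map_mul, hxs]; exact hp)
    rwa [map_mul, map_mul, hlf] at this
  refine ⟨π xs, ?_, ?_, ?_, ?_, ?_, ?_⟩
  · rw [← map_pow, ← map_one π]
    exact (hpm _ _).2 (Or.inl (by rw [hX3, map_one]))
  · have := (hpm (xs * lf (i 0)) (lf (j 0) * xs)).2 (by
      rw [map_mul, map_mul, hxs]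
      exact ((pm.refl X).mul aA).trans ((pm.of_eq XA).trans (bB.symm.mul (pm.refl X))))
    rwa [map_mul, map_mul, hlf, hlf] at this
  · have := (hpm (xs * lf (j 0)) (lf (i 0) * lf (j 0) * xs)).2 (by
      rw [map_mul, map_mul, map_mul, hxs]
      exact ((pm.refl X).mul bB).trans ((pm.of_eq XB).trans ((aA.symm.mul bB.symm).mul (pm.refl X))))
    rwa [map_mul, map_mul, map_mul, hlf, hlf] at this
  · intro g gi gj
    have e1 : pm (T g * A) (A * T g) := ((pm.refl _).mul aA.symm).trans ((r22 gi).trans (aA.mul (pm.refl _)))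
    have e2 : pm (T g * B) (B * T g) := ((pm.refl _).mul bB.symm).trans ((r22 gj).trans (bB.mul (pm.refl _)))
    have gu : T g * u = u * T g := by
      have := sq_conj e1
      rwa [AA] at this
    have k1 := exact_on h2 fA fA hv0 hv1 (uT g) gu e1
    have k2 := exact_on h2 fB fB hv0 hv1 (uT g) gu e2
    apply toX
    rw [hX, mul_smul_comm, smul_mul_assoc, hf.g_comm k1 k2]
    exact pm.refl _
  · intro g gi gj
    have e1 : pm (T g * A) (B * T g) := ((pm.refl _).mul aA.symm).trans ((r22 gi).trans (bB.mul (pm.refl _)))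
    have e2 : pm (T g * B) (A * B * T g) :=
      ((pm.refl _).mul bB.symm).trans ((r23 gj).trans ((aA.mul bB).mul (pm.refl _)))
    have gu : T g * u = u * T g := by
      have := sq_conj e1
      rwa [AA, BB] at this
    have k1 := exact_on h2 fA fB hv0 hv1 (uT g) gu e1
    have k2 := exact_on h2 fB fC hv0 hv1 (uT g) gu e2
    apply toX
    rw [hX, mul_smul_comm, smul_mul_assoc, hf.g_cyc k1 k2]
    exact pm.refl _
  · intro g gi gj
    have e1 : pm (T g * A) (B * T g) := ((pm.refl _).mul aA.symm).trans ((r22 gi).trans (bB.mul (pm.refl _)))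
    have e2 : pm (T g * B) (A * T g) := ((pm.refl _).mul bB.symm).trans ((r22 gj).trans (aA.mul (pm.refl _)))
    have gu : T g * u = u * T g := by
      have := sq_conj e1
      rwa [AA, BB] at this
    have k1 := exact_on h2 fA fB hv0 hv1 (uT g) gu e1
    have k2 := exact_on h2 fB fA hv0 hv1 (uT g) gu e2
    have hinv : (π xs)⁻¹ = π xs * π xs := by
      rw [inv_eq_iff_mul_eq_one, ← map_mul, ← map_mul, ← map_one π]
      refine (hpm _ _).2 (Or.inl ?_)
      rw [← mul_assoc, ← pow_two, ← pow_succ, hX3, map_one]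
    have := (hpm (lf g * xs) (xs * xs * lf (j 0) * lf g)).2 (by
      rw [map_mul, map_mul, map_mul, map_mul, hxs, XX]
      have e3 : T g * X = Y * B * T g := by
        rw [hX, hY, mul_smul_comm, hf.g_swap k1 k2, smul_mul_assoc, smul_mul_assoc]
      exact (pm.of_eq e3).trans (((pm.refl Y).mul bB.symm).mul (pm.refl _)))
    rw [map_mul, map_mul, map_mul, map_mul, hlf, hlf] at this
    rw [this, hinv]

end main

end Cfsg.Agent.H475.EP.Quat
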