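import Cfsg.Agent.H419.EP.Iface
import Cfsg.Agent.H475.EP.QuatC
import Cfsg.Agent.ClassicalGeometry.SiegelGen

/-!
# Four commuting quaternion groups with a common centre in `PΩ₈(q)`, `q` odd (helper475)

`exists_x` : `i k, j k` (`k : Fin 4`) with `i² = j² = (ij)² = z ≠ 1`, commuting for different `k`, and for `k ≠ l` an element of
odd order centralising `i k, j k` and inducing a 3-cycle on `i l, j l` (`QH i j z`): there is an element `x` of order 3 with
`x i₀ x⁻¹ = j₀`, `x j₀ x⁻¹ = i₀ j₀`, which commutes with every element commuting with `i₀, j₀`, and with the elements inducing the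
3-cycle on them; an element interchanging `i₀` and `j₀` conjugates `x` to `x⁻¹ j₀` (`XH (i 0) (j 0) x`).
-/

set_option autoImplicit false
set_option linter.unusedSectionVars false

namespace Cfsg.Agent.H475.EP.Quat

open Module Cfsg Cfsg.Geo Cfsg.Agent.H419.EP Cfsg.Agent.H475.EP.L34

section main

variable {Q : Type*} [Group Q] {ι : Type} [Fintype ι] [DecidableEq ι] {F : Type*} [Field F] {Qf : (ι → F) → F}

/-- the representation -/
noncomputable def rho (Qf : (ι → F) → F) : omegaGL Qf →* End F (ι → F) where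
  toFun s := Matrix.toLin' ((s : GL ι F) : Matrix ι ι F)
  map_one' := by
    rw [Subgroup.coe_one, Units.val_one, Matrix.toLin'_one]
    rfl
  map_mul' s t := by
    rw [Subgroup.coe_mul, Units.val_mul, Matrix.toLin'_mul]
    rfl

theorem rho_apply (s : omegaGL Qf) (v : ι → F) : rho Qf s v = ((s : GL ι F) : Matrix ι ι F).mulVec v := by
  change Matrix.toLin' _ v = _
  rw [Matrix.toLin'_apply]

theorem rho_iso (s : omegaGL Qf) (v : ι → F) : Qf (rho Qf s v) = Qf v := by
  obtain ⟨g, -, hg⟩ := s.2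
  rw [rho_apply, ← hg]
  exact g.2 v v

theorem rho_inj {s t : omegaGL Qf} (h : ∀ v, rho Qf s v = rho Qf t v) : s = t := by
  apply Subtype.ext
  apply Units.ext
  exact Matrix.toLin'.injective (LinearMap.ext h)

theorem rho_scalar {s : omegaGL Qf} {c : F} (h : ∀ v, rho Qf s v = c • v) (hc : c ≠ 0) :
    (s : GL ι F) ∈ Geo.scalars ι F := by
  rw [Geo.mem_scalars_iff]
  refine ⟨Units.mk0 c hc, ?_⟩
  apply Matrix.toLin'.injective
  rw [map_smul, Matrix.toLin'_one]
  exact LinearMap.ext h

theorem exists_ne' (hQ : IsNondegenerateQuadraticForm Qf) [Nonempty ι] : ∃ v, Qf v ≠ 0 := by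
  by_contra hne
  push Not at hne
  obtain ⟨i⟩ := ‹Nonempty ι›
  have h1 : (Pi.single i 1 : ι → F) ≠ 0 := fun e => by
    have := congrFun e i
    simp at this
  obtain ⟨⟨x, hx⟩, -⟩ := hQ.nondegenerate _ h1
  apply hx
  rw [QuadraticMap.polar, hne, hne, hne]
  ring

theorem pm_of (hQ : IsNondegenerateQuadraticForm Qf) [Nonempty ι] (m : Model Q (omegaGL Qf)) {s t : omegaGL Qf}
    (h : m.π s = m.π t) : pm (rho Qf s) (rho Qf t) := by
  have h1 : m.π (t⁻¹ * s) = 1 := by rw [map_mul, map_inv, h, inv_mul_cancel]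
  have h2 := (m.ker _).1 h1
  obtain ⟨c, hc⟩ := (Geo.mem_scalars_iff _).1 h2
  have h3 : ∀ v, rho Qf (t⁻¹ * s) v = (c : F) • v := by
    intro v
    rw [rho_apply, hc, Matrix.smul_mulVec, Matrix.one_mulVec]
  obtain ⟨v, hv⟩ := exists_ne' hQ
  have h4 := rho_iso (t⁻¹ * s) v
  rw [h3, hQ.smul] at h4
  have h5 : (c : F) ^ 2 = 1 := by
    have : ((c : F) ^ 2 - 1) * Qf v = 0 := by rw [sub_mul, h4, one_mul, sub_self]
    exact sub_eq_zero.1 ((mul_eq_zero.1 this).resolve_right hv)
  have h6 : ∀ v, rho Qf s v = (c : F) • rho Qf t v := by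
    intro v
    have : rho Qf s = rho Qf t * rho Qf (t⁻¹ * s) := by rw [← map_mul, mul_inv_cancel_left]
    rw [this, Module.End.mul_apply, h3, map_smul]
  rcases sq_eq_one_iff.1 h5 with e | e
  · exact Or.inl (LinearMap.ext fun v => by rw [h6, e, one_smul])
  · refine Or.inr (LinearMap.ext fun v => ?_)
    change rho Qf s v = -(rho Qf t v)
    rw [h6, e, neg_smul, one_smul]

theorem of_pm (m : Model Q (omegaGL Qf)) {s t : omegaGL Qf} (h : pm (rho Qf s) (rho Qf t)) : m.π s = m.π t := by
  rcases h with h | h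
  · have e : s = t := rho_inj (fun v => by rw [h])
    rw [e]
  · have h1 : ∀ v, rho Qf (t⁻¹ * s) v = (-1 : F) • v := by
      intro v
      have e1 : rho Qf s v = -(rho Qf t v) := by rw [h]; rfl
      have e2 : rho Qf t⁻¹ (rho Qf t v) = v := by
        rw [← Module.End.mul_apply, ← map_mul, inv_mul_cancel, map_one]
        rfl
      rw [map_mul, Module.End.mul_apply, e1, map_neg, e2, neg_smul, one_smul]
    have h2 := (m.ker _).2 (rho_scalar h1 (neg_ne_zero.2 one_ne_zero))
    rw [map_mul, map_inv, inv_mul_eq_one] at h2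
    exact h2.symm

/-- the quadratic form -/
noncomputable def qform (hQ : IsNondegenerateQuadraticForm Qf) : QuadraticForm F (ι → F) where
  toFun := Qf
  toFun_smul a x := by rw [hQ.smul, smul_eq_mul, pow_two]
  exists_companion' := ⟨LinearMap.mk₂ F (QuadraticMap.polar Qf) hQ.polar_bilinear.add_left hQ.polar_bilinear.smul_left
    (fun v x y => hQ.polar_bilinear.add_right v x y) (fun c v x => hQ.polar_bilinear.smul_right c v x), fun x y => by
    rw [LinearMap.mk₂_apply, QuadraticMap.polar]
    ring⟩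

theorem qform_nondeg (hQ : IsNondegenerateQuadraticForm Qf) : (QuadraticMap.polarBilin (qform hQ)).Nondegenerate := by
  constructor
  · intro x hx
    by_contra h0
    obtain ⟨-, y, hy⟩ := hQ.nondegenerate x h0
    exact hy (hx y)
  · intro x hx
    by_contra h0
    obtain ⟨⟨y, hy⟩, -⟩ := hQ.nondegenerate x h0
    exact hy (hx y)

/-- isometries of order 3 -/
theorem mem_omega (h2 : (2 : F) ≠ 0) (hQ : IsNondegenerateQuadraticForm Qf) {g : GL ι F}
    (hg : ∀ v, Qf ((g : Matrix ι ι F).mulVec v) = Qf v) (h3 : g ^ 3 = 1) : g ∈ omegaGL Qf := by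
  let g' : isometryGroup F Qf := ⟨g, fun u _ => hg u⟩
  have h4 : g' = (g' * g') * (g' * g') := by
    have : g' ^ 3 = 1 := Subtype.ext h3
    calc g' = g' ^ 3 * g' := by rw [this, one_mul]
      _ = (g' * g') * (g' * g') := by rw [pow_succ, pow_two]; simp only [mul_assoc]
  have h5 : g' ∈ commutator (isometryGroup F Qf) := by
    rw [h4]
    exact Cfsg.Agent.ClassicalGeometry.SiegelGen.mul_self_mem_commutator h2 (qform hQ) (qform_nondeg hQ) (g' * g')
  exact ⟨g', h5, rfl⟩

theorem polar_self (hQ : IsNondegenerateQuadraticForm Qf) (v : ι → F) : QuadraticMap.polar Qf v v = 2 * Qf v := by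
  rw [QuadraticMap.polar, ← two_smul F v, hQ.smul]
  ring

/-- **The element `x`.** -/
theorem exists_x [Finite F] (h2 : (2 : F) ≠ 0) (hi : Fintype.card ι = 8) (hQ : IsNondegenerateQuadraticForm Qf)
    (m : Model Q (omegaGL Qf)) {i j : Fin 4 → Q} {z : Q} (h : QH i j z) : ∃ x : Q, XH (i 0) (j 0) x := by
  classical
  have : Nonempty ι := Fintype.card_pos_iff.1 (by omega)
  obtain ⟨a₁, a₂, hxy⟩ : ∃ a b : F, a ^ 2 + b ^ 2 = -1 := by
    have := Fintype.ofFinite F
    obtain ⟨p, hp⟩ := CharP.exists F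
    have : NeZero p := ⟨fun e => by
      subst e
      have := CharP.charP_to_charZero F
      exact not_finite F⟩
    obtain ⟨a, b, hab⟩ := CharP.sq_add_sq F p (-1)
    exact ⟨a, b, by simpa using hab⟩
  refine exists_x_abs h2 hxy (by rw [Module.finrank_fintype_fun_eq_card, hi]) (rho Qf) m.π m.surj
    (fun s t => ⟨pm_of hQ m, of_pm m⟩) (P := QuadraticMap.polar Qf) hQ.polar_bilinear.add_left
    hQ.polar_bilinear.add_right hQ.polar_bilinear.smul_left hQ.polar_bilinear.smul_right ?_ ?_ h
  · intro s v w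
    have e : ∀ v, Qf (rho Qf s v) = Qf v := rho_iso s
    rw [QuadraticMap.polar, QuadraticMap.polar, ← map_add, e, e, e]
  · intro X Y XY YX XX hX
    have e1 : LinearMap.toMatrix' X * LinearMap.toMatrix' Y = 1 := by
      rw [← LinearMap.toMatrix'_comp]
      have : X ∘ₗ Y = LinearMap.id := XY
      rw [this, LinearMap.toMatrix'_id]
    have e2 : LinearMap.toMatrix' Y * LinearMap.toMatrix' X = 1 := by
      rw [← LinearMap.toMatrix'_comp]
      have : Y ∘ₗ X = LinearMap.id := YX
      rw [this, LinearMap.toMatrix'_id]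
    have e3 : LinearMap.toMatrix' X * LinearMap.toMatrix' X = LinearMap.toMatrix' Y := by
      rw [← LinearMap.toMatrix'_comp]
      have : X ∘ₗ X = Y := XX
      rw [this]
    set g : GL ι F := ⟨LinearMap.toMatrix' X, LinearMap.toMatrix' Y, e1, e2⟩ with hg
    have hgv : ∀ v, (g : Matrix ι ι F).mulVec v = X v := fun v => by
      rw [← Matrix.toLin'_apply]
      change Matrix.toLin' (LinearMap.toMatrix' X) v = X v
      rw [Matrix.toLin'_toMatrix']
    have hg3 : g ^ 3 = 1 := by
      apply Units.ext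
      rw [pow_succ, pow_two, Units.val_mul, Units.val_mul, Units.val_one]
      change LinearMap.toMatrix' X * LinearMap.toMatrix' X * LinearMap.toMatrix' X = 1
      rw [e3, e2]
    have hmem : g ∈ omegaGL Qf := by
      refine mem_omega h2 hQ (fun v => ?_) hg3
      have := hX v v
      rw [polar_self hQ, polar_self hQ] at this
      rw [hgv]
      exact mul_left_cancel₀ h2 this
    refine ⟨⟨g, hmem⟩, LinearMap.ext fun v => ?_⟩
    rw [rho_apply, hgv]

end main

end Cfsg.Agent.H475.EP.Quat
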