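import Cfsg.Agent.H475.EP.L34

/-!
# Linear algebra: commuting quaternionic pairs in dimension 8 (helper475)

* `core` : four commuting pairs `a m, b m` with `(a m)² = (b m)² = ((a m)(b m))² = ± u`, `u² = 1`, `u ≠ ±1`, in dimension 8:
  `a 0` and `b 0` are scalars `±1` on the `(+1)`-space of `u`;
* `Half` : the element `x = e₊ - (1 + A + B + AB) e₋ / 2`.
-/

set_option autoImplicit false
set_option linter.unusedSectionVars false

universe u v

namespace Cfsg.Agent.H475.EP.Quat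

open Module Cfsg.Agent.H475.EP.L34

section lin

variable {K : Type u} [Field K] {V : Type v} [AddCommGroup V] [Module K V] [FiniteDimensional K V]

/-- splitting by a local involution -/
theorem split' (h2 : (2 : K) ≠ 0) {W : Submodule K V} {b : End K V} (hb : ∀ v ∈ W, b (b v) = v) (hW : In W b) :
    finrank K W = finrank K ↥(W ⊓ LinearMap.ker (b - 1)) + finrank K ↥(W ⊓ LinearMap.ker (b + 1)) := by
  have h1 : (W ⊓ LinearMap.ker (b - 1)) ⊔ (W ⊓ LinearMap.ker (b + 1)) = W := by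
    apply le_antisymm (sup_le inf_le_left inf_le_left)
    intro v hv
    refine Submodule.mem_sup.2 ⟨(2 : K)⁻¹ • (v + b v), ⟨W.smul_mem _ (W.add_mem hv (hW v hv)), ?_⟩,
      (2 : K)⁻¹ • (v - b v), ⟨W.smul_mem _ (W.sub_mem hv (hW v hv)), ?_⟩, ?_⟩
    · rw [SetLike.mem_coe, mem_p, map_smul, map_add, hb v hv, add_comm]
    · rw [SetLike.mem_coe, mem_m, map_smul, map_sub, hb v hv, ← smul_neg, neg_sub]
    · rw [← smul_add, add_add_sub_cancel, ← two_smul K v, smul_smul, inv_mul_cancel₀ h2, one_smul]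
  have h3 : (W ⊓ LinearMap.ker (b - 1)) ⊓ (W ⊓ LinearMap.ker (b + 1)) = ⊥ := by
    rw [eq_bot_iff]
    rintro v ⟨⟨-, hv⟩, -, hv'⟩
    have e1 : b v = v := mem_p.1 hv
    have e2 : b v = -v := mem_m.1 hv'
    have e3 : (2 : K) • v = 0 := by
      rw [two_smul]
      nth_rewrite 1 [← e1]
      rw [e2, neg_add_cancel]
    exact (smul_eq_zero.1 e3).resolve_left h2
  have h4 := Submodule.finrank_sup_add_finrank_inf_eq (W ⊓ LinearMap.ker (b - 1)) (W ⊓ LinearMap.ker (b + 1))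
  rw [h1, h3, finrank_bot, add_zero] at h4
  exact h4

/-- a quaternionic pair on `W` -/
structure QP (W : Submodule K V) (a b : End K V) : Prop where
  ia : In W a
  ib : In W b
  aa : ∀ v ∈ W, a (a v) = -v
  bb : ∀ v ∈ W, b (b v) = -v
  ab : ∀ v ∈ W, a (b v) = -(b (a v))

/-- the pair `a, b` commutes with `c` -/
def C2 (a b c : End K V) : Prop := (∀ v, c (a v) = a (c v)) ∧ ∀ v, c (b v) = b (c v)

theorem QP.mono {W W' : Submodule K V} {a b : End K V} (h : QP W a b) (hW : W' ≤ W) (ha : In W' a) (hb : In W' b) :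
    QP W' a b :=
  ⟨ha, hb, fun v hv => h.aa v (hW hv), fun v hv => h.bb v (hW hv), fun v hv => h.ab v (hW hv)⟩

/-- halving -/
theorem half (h2 : (2 : K) ≠ 0) {x y : K} (hxy : x ^ 2 + y ^ 2 = -1) {W : Submodule K V} {a b : End K V} (h : QP W a b) :
    ∃ W' ≤ W, finrank K W = 2 * finrank K W' ∧ ∀ c : End K V, In W c → C2 a b c → In W' c := by
  set t : End K V := x • a + y • b with ht
  have hx' : x * x + y * y = -1 := by rw [← hxy]; ring
  have htv : ∀ v, t v = x • a v + y • b v := fun v => rfl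
  have htW : In W t := fun v hv => by
    rw [htv]
    exact W.add_mem (W.smul_mem _ (h.ia v hv)) (W.smul_mem _ (h.ib v hv))
  have htt : ∀ v ∈ W, t (t v) = v := by
    intro v hv
    rw [htv, htv, map_add, map_add, map_smul, map_smul, map_smul, map_smul, h.aa v hv, h.bb v hv, h.ab v hv]
    have : x • (x • -v + y • -b (a v)) + y • (x • b (a v) + y • -v) = -((x * x + y * y) • v) := by
      module
    rw [this, hx', neg_smul, one_smul, neg_neg]
  have hs := split' h2 htt htW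
  set s : End K V := a * b with hsd
  have hsv : ∀ v, s v = a (b v) := fun v => rfl
  have hst : ∀ v ∈ W, s (t v) = -(t (s v)) := by
    intro v hv
    have e1 : b (t v) = x • b (a v) + y • b (b v) := by rw [htv, map_add, map_smul, map_smul]
    have e2 : a (b (a v)) = b v := by
      rw [h.ab _ (h.ia v hv), h.aa v hv, map_neg, neg_neg]
    have e3 : b (a (b v)) = a v := by
      have := h.ab _ (h.ib v hv)
      rw [h.bb v hv, map_neg] at this
      rw [← neg_neg (b (a (b v))), ← this, neg_neg]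
    rw [hsv, e1, map_add, map_smul, map_smul, e2, h.bb v hv, map_neg, htv, hsv, h.aa _ (h.ib v hv), e3]
    module
  have hsW : In W s := fun v hv => h.ia _ (h.ib v hv)
  have hss : ∀ v ∈ W, s (s v) = -v := by
    intro v hv
    rw [hsv, hsv]
    have e3 : b (a (b v)) = a v := by
      have := h.ab _ (h.ib v hv)
      rw [h.bb v hv, map_neg] at this
      rw [← neg_neg (b (a (b v))), ← this, neg_neg]
    rw [e3, h.aa v hv]
  have hinj : ∀ v ∈ W, ∀ w ∈ W, s v = s w → v = w := by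
    intro v hv w hw e
    have := congrArg s e
    rw [hss v hv, hss w hw] at this
    exact neg_injective this
  have hle : ∀ (U U' : Submodule K V), U ≤ W → (∀ v ∈ U, s v ∈ U') → finrank K U ≤ finrank K U' := by
    intro U U' hU hs'
    refine LinearMap.finrank_le_finrank_of_injective (f := s.restrict hs') ?_
    rintro ⟨v, hv⟩ ⟨w, hw⟩ e
    have e' : s v = s w := congrArg Subtype.val e
    exact Subtype.ext (hinj v (hU hv) w (hU hw) e')
  have l1 : finrank K ↥(W ⊓ LinearMap.ker (t - 1)) ≤ finrank K ↥(W ⊓ LinearMap.ker (t + 1)) := by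
    refine hle _ _ inf_le_left ?_
    rintro v ⟨hv, hv'⟩
    refine ⟨hsW v hv, ?_⟩
    rw [SetLike.mem_coe, mem_m]
    have := hst v hv
    rw [mem_p.1 hv'] at this
    rw [← neg_eq_iff_eq_neg.2 this]
  have l2 : finrank K ↥(W ⊓ LinearMap.ker (t + 1)) ≤ finrank K ↥(W ⊓ LinearMap.ker (t - 1)) := by
    refine hle _ _ inf_le_left ?_
    rintro v ⟨hv, hv'⟩
    refine ⟨hsW v hv, ?_⟩
    rw [SetLike.mem_coe, mem_p]
    have := hst v hv
    rw [mem_m.1 hv', map_neg] at this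
    exact (neg_injective this).symm
  refine ⟨W ⊓ LinearMap.ker (t - 1), inf_le_left, by omega, ?_⟩
  rintro c hc ⟨c1, c2⟩ v ⟨hv, hv'⟩
  refine ⟨hc v hv, ?_⟩
  rw [SetLike.mem_coe, mem_p] at hv' ⊢
  rw [htv, ← c1, ← c2, ← map_smul c, ← map_smul c, ← map_add c, ← htv, hv']

theorem four_dvd (h2 : (2 : K) ≠ 0) {x y : K} (hxy : x ^ 2 + y ^ 2 = -1) {W : Submodule K V} {a b a' b' : End K V}
    (h : QP W a b) (h' : QP W a' b') (ca : C2 a b a') (cb : C2 a b b') : 4 ∣ finrank K W := by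
  obtain ⟨W₁, l1, e1, k1⟩ := half h2 hxy h
  obtain ⟨W₂, l2, e2, k2⟩ := half h2 hxy (h'.mono l1 (k1 _ h'.ia ca) (k1 _ h'.ib cb))
  exact ⟨finrank K W₂, by rw [e1, e2]; ring⟩

theorem eight_dvd (h2 : (2 : K) ≠ 0) {x y : K} (hxy : x ^ 2 + y ^ 2 = -1) {W : Submodule K V} {a b a' b' a'' b'' : End K V}
    (h : QP W a b) (h' : QP W a' b') (h'' : QP W a'' b'') (ca : C2 a b a') (cb : C2 a b b') (ca' : C2 a b a'')
    (cb' : C2 a b b'') (ca'' : C2 a' b' a'') (cb'' : C2 a' b' b'') : 8 ∣ finrank K W := by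
  obtain ⟨W₁, l1, e1, k1⟩ := half h2 hxy h
  obtain ⟨n, hn⟩ := four_dvd h2 hxy (h'.mono l1 (k1 _ h'.ia ca) (k1 _ h'.ib cb))
    (h''.mono l1 (k1 _ h''.ia ca') (k1 _ h''.ib cb')) ca'' cb''
  exact ⟨n, by rw [e1, hn]; ring⟩

/-- the commutant is scalar -/
theorem scalar (h2 : (2 : K) ≠ 0) {x y : K} (hxy : x ^ 2 + y ^ 2 = -1) {W : Submodule K V} {a b a' b' : End K V}
    (h : QP W a b) (h' : QP W a' b') (ca : C2 a b a') (cb : C2 a b b') (hW : finrank K W = 4) {c : End K V}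
    (hc : In W c) (cc : C2 a b c) (cc' : C2 a' b' c) : ∃ l : K, ∀ v ∈ W, c v = l • v := by
  obtain ⟨W₁, l1, e1, k1⟩ := half h2 hxy h
  obtain ⟨W₂, l2, e2, k2⟩ := half h2 hxy (h'.mono l1 (k1 _ h'.ia ca) (k1 _ h'.ib cb))
  have hc2 : In W₂ c := k2 _ (k1 _ hc cc) cc'
  have h1 : finrank K W₂ = 1 := by omega
  obtain ⟨⟨v, hv⟩, hv0, hv1⟩ := finrank_eq_one_iff'.1 h1
  obtain ⟨l, hl⟩ := hv1 ⟨c v, hc2 v hv⟩
  have hl' : c v = l • v := (congrArg Subtype.val hl).symm
  have hv0' : v ≠ 0 := fun e => hv0 (Subtype.ext e)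
  refine ⟨l, ?_⟩
  set U : Submodule K V := W ⊓ LinearMap.ker (c - l • (1 : End K V)) with hU
  have memU : ∀ w, w ∈ U ↔ w ∈ W ∧ c w = l • w := by
    intro w
    rw [hU, Submodule.mem_inf, LinearMap.mem_ker, LinearMap.sub_apply, LinearMap.smul_apply, End.one_apply, sub_eq_zero]
  have inv : ∀ d : End K V, In W d → (∀ v, c (d v) = d (c v)) → In U d := by
    intro d hd hcd w hw
    rw [memU] at hw ⊢
    exact ⟨hd w hw.1, by rw [hcd, hw.2, map_smul]⟩
  have hUW : U ≤ W := inf_le_left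
  have h4 := four_dvd h2 hxy (h.mono hUW (inv _ h.ia cc.1) (inv _ h.ib cc.2))
    (h'.mono hUW (inv _ h'.ia cc'.1) (inv _ h'.ib cc'.2)) ca cb
  have hvU : v ∈ U := (memU v).2 ⟨l1 (l2 hv), hl'⟩
  have hpos : 0 < finrank K U := by
    rw [Nat.pos_iff_ne_zero]
    intro e
    have := Submodule.finrank_eq_zero.1 e
    rw [this] at hvU
    exact hv0' ((Submodule.mem_bot K).1 hvU)
  have hUeq : U = W := Submodule.eq_of_le_of_finrank_le hUW (by rw [hW]; exact Nat.le_of_dvd hpos h4)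
  intro w hw
  rw [← hUeq] at hw
  exact ((memU w).1 hw).2

/-- four commuting pairs -/
structure Dat (u : End K V) (a b : Fin 4 → End K V) (s : Fin 4 → K) : Prop where
  uu : ∀ v, u (u v) = v
  u1 : u ≠ 1
  u2 : u ≠ -1
  sv : ∀ m, s m = 1 ∨ s m = -1
  aa : ∀ m v, a m (a m v) = s m • u v
  bb : ∀ m v, b m (b m v) = s m • u v
  ab : ∀ m v, a m (b m v) = s m • u (b m (a m v))
  ca : ∀ m m', m ≠ m' → C2 (a m) (b m) (a m')
  cb : ∀ m m', m ≠ m' → C2 (a m) (b m) (b m')

namespace Dat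

variable {u : End K V} {a b : Fin 4 → End K V} {s : Fin 4 → K}

theorem ss (h : Dat u a b s) (m : Fin 4) : s m * s m = 1 := by
  rcases h.sv m with e | e <;> rw [e] <;> ring

theorem ua (h : Dat u a b s) (m : Fin 4) (v : V) : u (a m v) = a m (u v) := by
  have e1 := h.aa m (a m v)
  rw [h.aa m v, map_smul] at e1
  have := congrArg (fun w => s m • w) e1
  simp only [smul_smul, h.ss m, one_smul] at this
  exact this.symm

theorem ub (h : Dat u a b s) (m : Fin 4) (v : V) : u (b m v) = b m (u v) := by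
  have e1 := h.bb m (b m v)
  rw [h.bb m v, map_smul] at e1
  have := congrArg (fun w => s m • w) e1
  simp only [smul_smul, h.ss m, one_smul] at this
  exact this.symm

/-- the eigenspace on which the pair `m` is quaternionic -/
def E (u : End K V) (l : K) : Submodule K V := LinearMap.ker (u + l • (1 : End K V))

theorem mem_E {l : K} {v : V} : v ∈ E u l ↔ u v = - (l • v) := by
  rw [E, LinearMap.mem_ker, LinearMap.add_apply, LinearMap.smul_apply, End.one_apply, add_eq_zero_iff_eq_neg]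

theorem ia (h : Dat u a b s) (m : Fin 4) (l : K) : In (E u l) (a m) := by
  intro v hv
  rw [mem_E] at hv ⊢
  rw [h.ua, hv, map_neg, map_smul]

theorem ib (h : Dat u a b s) (m : Fin 4) (l : K) : In (E u l) (b m) := by
  intro v hv
  rw [mem_E] at hv ⊢
  rw [h.ub, hv, map_neg, map_smul]

theorem qp (h : Dat u a b s) (m : Fin 4) {l : K} (hl : s m = l) : QP (E u l) (a m) (b m) := by
  subst hl
  refine ⟨h.ia m _, h.ib m _, fun v hv => ?_, fun v hv => ?_, fun v hv => ?_⟩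
  · rw [h.aa, mem_E.1 hv, smul_neg, smul_smul, h.ss, one_smul]
  · rw [h.bb, mem_E.1 hv, smul_neg, smul_smul, h.ss, one_smul]
  · rw [h.ab, mem_E.1 (h.ib m _ _ (h.ia m _ v hv)), smul_neg, smul_smul, h.ss, one_smul]

theorem sum (h2 : (2 : K) ≠ 0) (h : Dat u a b s) : finrank K (E u (-1)) + finrank K (E u 1) = finrank K V := by
  have := split' h2 (W := (⊤ : Submodule K V)) (b := u) (fun v _ => h.uu v) (fun v _ => trivial)
  rw [top_inf_eq, top_inf_eq, finrank_top] at this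
  rw [this, E, E, neg_smul, one_smul, ← sub_eq_add_neg]

theorem pos (h : Dat u a b s) {l : K} (hl : l = 1 ∨ l = -1) : 0 < finrank K (E u l) := by
  rw [Nat.pos_iff_ne_zero]
  intro e
  have e1 := Submodule.finrank_eq_zero.1 e
  have key : ∀ v, u v = l • v := by
    intro v
    have : u v - l • v ∈ E u l := by
      rw [mem_E, map_sub, map_smul, h.uu]
      rcases hl with rfl | rfl <;> simp only [one_smul, neg_smul] <;> abel
    rw [e1, Submodule.mem_bot, sub_eq_zero] at this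
    exact this
  rcases hl with rfl | rfl
  · exact h.u1 (LinearMap.ext fun v => by rw [key v, one_smul]; rfl)
  · exact h.u2 (LinearMap.ext fun v => by rw [key v, neg_smul, one_smul]; rfl)

theorem no_three (h2 : (2 : K) ≠ 0) {x y : K} (hxy : x ^ 2 + y ^ 2 = -1) (hd : finrank K V = 8) (h : Dat u a b s)
    {m m' m'' : Fin 4} (n1 : m ≠ m') (n2 : m ≠ m'') (n3 : m' ≠ m'') {l : K} (e1 : s m = l) (e2 : s m' = l)
    (e3 : s m'' = l) : False := by
  have h8 := eight_dvd h2 hxy (h.qp m e1) (h.qp m' e2) (h.qp m'' e3) (h.ca m m' n1) (h.cb m m' n1) (h.ca m m'' n2)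
    (h.cb m m'' n2) (h.ca m' m'' n3) (h.cb m' m'' n3)
  have hl : l = 1 ∨ l = -1 := e1 ▸ h.sv m
  have p1 := h.pos (l := 1) (Or.inl rfl)
  have p2 := h.pos (l := -1) (Or.inr rfl)
  have hs := h.sum h2
  rw [hd] at hs
  rcases hl with rfl | rfl <;> have := Nat.le_of_dvd (by assumption) h8 <;> omega

/-- **The main dichotomy.** -/
theorem core (h2 : (2 : K) ≠ 0) {x y : K} (hxy : x ^ 2 + y ^ 2 = -1) (hd : finrank K V = 8) (h : Dat u a b s)
    (h0 : s 0 = 1) : ∃ α β : K, (α = 1 ∨ α = -1) ∧ (β = 1 ∨ β = -1) ∧ (∀ v, u v = v → a 0 v = α • v) ∧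
      (∀ v, u v = v → b 0 v = β • v) ∧ ∃ v, v ≠ 0 ∧ u v = v := by
  have key : ∃ p m m' : Fin 4, p ≠ 0 ∧ m ≠ 0 ∧ m' ≠ 0 ∧ m ≠ m' ∧ s p = 1 ∧ s m = -1 ∧ s m' = -1 := by
    rcases h.sv 1 with e1 | e1 <;> rcases h.sv 2 with e2 | e2 <;> rcases h.sv 3 with e3 | e3
    · exact (h.no_three h2 hxy hd (m := 1) (m' := 2) (m'' := 3) (by decide) (by decide) (by decide) e1 e2 e3).elim
    · exact (h.no_three h2 hxy hd (m := 0) (m' := 1) (m'' := 2) (by decide) (by decide) (by decide) h0 e1 e2).elim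
    · exact (h.no_three h2 hxy hd (m := 0) (m' := 1) (m'' := 3) (by decide) (by decide) (by decide) h0 e1 e3).elim
    · exact ⟨1, 2, 3, by decide, by decide, by decide, by decide, e1, e2, e3⟩
    · exact (h.no_three h2 hxy hd (m := 0) (m' := 2) (m'' := 3) (by decide) (by decide) (by decide) h0 e2 e3).elim
    · exact ⟨2, 1, 3, by decide, by decide, by decide, by decide, e2, e1, e3⟩
    · exact ⟨3, 1, 2, by decide, by decide, by decide, by decide, e3, e1, e2⟩
    · exact (h.no_three h2 hxy hd (m := 1) (m' := 2) (m'' := 3) (by decide) (by decide) (by decide) e1 e2 e3).elim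
  obtain ⟨p, m, m', hp, hm, hm', hmm, sp, sm, sm'⟩ := key
  have d1 := four_dvd h2 hxy (h.qp 0 h0) (h.qp p sp) (h.ca 0 p hp.symm) (h.cb 0 p hp.symm)
  have d2 := four_dvd h2 hxy (h.qp m sm) (h.qp m' sm') (h.ca m m' hmm) (h.cb m m' hmm)
  have p1 := h.pos (l := 1) (Or.inl rfl)
  have p2 := h.pos (l := -1) (Or.inr rfl)
  have hs := h.sum h2
  rw [hd] at hs
  have hW : finrank K (E u (-1)) = 4 := by
    obtain ⟨k1, hk1⟩ := d1
    obtain ⟨k2, hk2⟩ := d2
    omega
  have memW : ∀ v, v ∈ E u (-1) ↔ u v = v := by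
    intro v
    rw [mem_E, neg_smul, one_smul, neg_neg]
  obtain ⟨v0, hv0, hv1⟩ : ∃ v, v ≠ 0 ∧ u v = v := by
    have : E u (-1) ≠ ⊥ := fun e => by rw [e, finrank_bot] at hW; omega
    obtain ⟨v, hv, hv'⟩ := (Submodule.ne_bot_iff _).1 this
    exact ⟨v, hv', (memW v).1 hv⟩
  obtain ⟨α, hα⟩ := scalar h2 hxy (h.qp m sm) (h.qp m' sm') (h.ca m m' hmm) (h.cb m m' hmm) hW (h.ia 0 _)
    (h.ca m 0 hm) (h.ca m' 0 hm')
  obtain ⟨β, hβ⟩ := scalar h2 hxy (h.qp m sm) (h.qp m' sm') (h.ca m m' hmm) (h.cb m m' hmm) hW (h.ib 0 _)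
    (h.cb m 0 hm) (h.cb m' 0 hm')
  have sc : ∀ {c : End K V} {γ : K}, (∀ v ∈ E u (-1), c v = γ • v) → c (c v0) = s 0 • u v0 → γ = 1 ∨ γ = -1 := by
    intro c γ hc e
    have hv0m := (memW v0).2 hv1
    rw [hc v0 hv0m, map_smul, hc v0 hv0m, smul_smul, h0, one_smul, hv1] at e
    have e2 : (γ * γ - 1) • v0 = 0 := by rw [sub_smul, e, one_smul, sub_self]
    have e3 := (smul_eq_zero.1 e2).resolve_right hv0
    exact mul_self_eq_one_iff.1 (sub_eq_zero.1 e3)
  exact ⟨α, β, sc hα (h.aa 0 v0), sc hβ (h.bb 0 v0), fun v hv => hα v ((memW v).2 hv), fun v hv => hβ v ((memW v).2 hv),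
    v0, hv0, hv1⟩

end Dat

end lin

end Cfsg.Agent.H475.EP.Quat
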